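import Cfsg.Agent.TC.Kit

set_option autoImplicit false
set_option linter.all false
set_option maxRecDepth 100000

namespace Cfsg.Agent.TC.SzTA

open Cfsg.Agent.M24

noncomputable def row (q : ℕ) : ℕ :=
  Nat.land (Nat.shiftRight (@Bool.rec (fun _ => ℕ) (@Bool.rec (fun _ => ℕ) (nat_lit 0x1c00000000000000000000007c0202000e0000780400000f00000400180000000000000000000000700500000d000074000000100000000016000000000000000000000080050000100000680400000c000000001400000000000000000000006c0000000f0000600400000b) (nat_lit 0x400120000000000000000000000580500000a0000640000000e00000400100000000000000000000000500500000900005c0000000d000000000e0000000000000000000000540000000c00004804000008000000000c00000000000000000000004c0000000b00004004000007) (Nat.ble q (nat_lit 11))) (@Bool.rec (fun _ => ℕ) (nat_lit 0x4000a000000000000000000000038050000060000440000000a00000400080000000000000000000000300500000500003c0000000900000000060000000000000000000000340000000800002804000004000000000400000000000000000000002c0000000700002004000003) (nat_lit 0x40002000000000000000000000018050000020000240000000600000400000000000000000000000000100500000100001c0000000500000000000000000000000000000000140000000400000804000001000000000000000000000000000000000c0000000300000400000002)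 (Nat.ble q (nat_lit 3))) (Nat.ble q (nat_lit 7))) (Nat.mul (Nat.land q (nat_lit 3)) (nat_lit 224))) (nat_lit 0xffffffffffffffffffffffffffffffffffffffffffffffffffffffff)

noncomputable def rel (q : ℕ) : ℕ :=
  (@Bool.rec (fun _ => ℕ) (@Bool.rec (fun _ => ℕ) (nat_lit 0x842102) (@Bool.rec (fun _ => ℕ) (nat_lit 0x2) (nat_lit 0x4010040100401004010040100401004010040110) (Nat.ble q (nat_lit 3))) (Nat.ble q (nat_lit 4))) (@Bool.rec (fun _ => ℕ) (nat_lit 0x80200802008020080200802008020080200802010) (@Bool.rec (fun _ => ℕ) (nat_lit 0x0) (nat_lit 0x0) (Nat.ble q (nat_lit 0))) (Nat.ble q (nat_lit 1))) (Nat.ble q (nat_lit 2)))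

/-- inverse letters -/
noncomputable def iv : ℕ → ℕ := fun i => i

/-- the relators -/
def base : List (List ℕ) :=
  [[0, 1, 0, 1, 0, 1, 0, 1, 0, 1, 0, 1, 0, 1, 0, 1]]

noncomputable def chk : ℕ → Bool := chkRow row rel (nat_lit 2) (nat_lit 16) (nat_lit 6) (nat_lit 0) (nat_lit 1)

theorem b0 : ball chk (nat_lit 4) (nat_lit 0) = true := by decide +kernel

theorem rel_ok : relChk rel (allW iv 2 base) 2 = true := by decide +kernel

theorem len_ok : 2 + (allW iv 2 base).length = 6 := by decide +kernel

theorem live_ok : bsum (fun c => b2n (live row 2 16 c)) 4 0 = 16 := by decide +kernel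

theorem blk : ∀ j, j < 1 → ball chk 4 j = true
  | 0, _ => b0
  | n + 1, h => absurd h (by omega)

theorem cert : Cert 2 iv base 0 16 :=
  ⟨⟨row, rel, 16, 1, by decide, by decide, rel_ok, by decide +kernel,
    len_ok ▸ rows_of_blocks (f := chk) (M := 16) (fun c h => chkRow_of_le c h) 1 (by decide) blk,
    live_card (by decide) live_ok⟩⟩

end Cfsg.Agent.TC.SzTA
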