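import Cfsg.Agent.SZ.M4

/-! # Groups of type `Suz`; Sylow 7-subgroups -/

set_option autoImplicit false
set_option maxRecDepth 100000

namespace Cfsg.Agent.SZ

open Cfsg Cfsg.Spor Cfsg.Agent.GT Cfsg.Agent.TT Cfsg.Agent.TC Cfsg.Agent.XL Cfsg.Agent.M24 Subgroup MulAction

variable {G : Type*} [Group G] [Finite G] {z : G}

theorem iso_stmt (hz : orderOf z = 2) {Q : Subgroup C1[z]} [Q.Normal]
    (hF : generalizedFittingSubgroup C1[z] = Q) (hQ : IsExtraspecial 2 Q) (hcard : Nat.card Q = 2 ^ 7)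
    (e : C1[z] ⧸ Q ≃* Omega (ZMod 2) (quadFormMinus 2 (ZMod 2) 1 1))
    (hn : ∃ g : G, (∃ hq : g * z * g⁻¹ ∈ C1[z], (⟨g * z * g⁻¹, hq⟩ : C1[z]) ∈ Q) ∧ g * z * g⁻¹ ≠ z) :
    ∃ φ : Suz ≃* G, φ (m 0) = z ∧ (Mb m Ql).map φ.toMonoidHom = Q.map (C1[z]).subtype :=
  let ⟨_, h⟩ := LT.of_stmt (w := 3) hz hF hQ hcard ((Nat.card_congr (e.trans om6).toEquiv).trans cardE6) hn
  let ⟨φ, a, _, b⟩ := iso' h
  ⟨φ, a, b⟩

theorem two_classes {X : Type*} [Group X] (φ : X ≃* G) {a b : X} {E : Subgroup X} {p q : ℕ} (c : CT a b E p q)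
    (n : ¬ IsConj (φ a) (φ b)) : ∃ a b : G, orderOf a = 2 ∧ orderOf b = 2 ∧ ¬ IsConj a b ∧
      ∀ x : G, orderOf x = 2 → IsConj x a ∨ IsConj x b := by
  refine ⟨φ a, φ b, by rw [φ.orderOf_eq]; exact orderOf_eq_prime (by rw [sq, c.zz]) c.z1,
    by rw [φ.orderOf_eq]; exact orderOf_eq_prime (by rw [sq, c.tt]) c.t1, n, fun x hx => ?_⟩
  obtain ⟨x, rfl⟩ := φ.surjective x
  rw [φ.orderOf_eq] at hx
  obtain ⟨g, e⟩ := c.cls x (mul_self_of_orderOf hx) (ne_one_of_orderOf hx)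
  exact e.imp (fun e => (φ.toMonoidHom.map_isConj (isConj_iff.2 ⟨g, e.symm⟩)).symm)
    fun e => (φ.toMonoidHom.map_isConj (isConj_iff.2 ⟨g, e.symm⟩)).symm

/-- Sylow subgroups correspond to a given one -/
theorem exists_equiv_syl {X : Type*} [Group X] (φ : X ≃* G) {p : ℕ} (hp : p.Prime) {P : Subgroup X}
    (h : IsPiHallOf {p} P ⊤) (B : Sylow p G) : ∃ ψ : X ≃* G, P.map ψ.toMonoidHom = B := by
  haveI := Fact.mk hp
  haveI := Finite.of_equiv _ φ.symm.toEquiv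
  have a : IsPiHallOf {p} (P.map φ.toMonoidHom) ⊤ := syl_mk hp le_top ((syl_isPGroup hp h).map _) (by
    rw [← map_top_of_surjective φ.toMonoidHom φ.surjective, relIndex_map_map_of_injective _ _ φ.injective]
    exact syl_not_dvd hp h)
  obtain ⟨g, -, e⟩ := syl_exists_conj hp a (syl_mk hp le_top B.isPGroup' (by simpa using B.not_dvd_index))
  exact ⟨φ.trans (MulAut.conj g), by
    rw [e]; exact (map_map P (MulAut.conj g).toMonoidHom φ.toMonoidHom).symm⟩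

theorem map_cent_equiv {X : Type*} [Group X] (ψ : X ≃* G) (P : Subgroup X) :
    C[P.map ψ.toMonoidHom] = (C[P]).map ψ.toMonoidHom := by
  ext g
  obtain ⟨g, rfl⟩ := ψ.surjective g
  rw [show ψ g = ψ.toMonoidHom g from rfl, mem_map_iff_mem ψ.injective]
  refine ⟨fun h x hx => ψ.injective (by simpa using h _ ⟨x, hx, rfl⟩), ?_⟩
  rintro h _ ⟨x, hx, rfl⟩
  rw [← map_mul, h x hx, map_mul]

/-- images of the letters -/
def d84 (i : ℕ) : Multiplicative (ZMod 7) × alternatingGroup (Fin 4) :=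
  if i = 14 then (Multiplicative.ofAdd 1, 1) else
  (1, if i = 1 then ⟨Equiv.swap 0 3 * Equiv.swap 1 2, Equiv.Perm.mem_alternatingGroup.2 (by decide)⟩ else
    if i = 2 then ⟨Equiv.swap 0 1 * Equiv.swap 2 3, Equiv.Perm.mem_alternatingGroup.2 (by decide)⟩ else ⟨Equiv.swap 0 2 * Equiv.swap 0 3, Equiv.Perm.mem_alternatingGroup.2 (by decide)⟩)

theorem cent7 : C[zpowers (mC 14)] = Mb mC [14, 1, 2, 3] := by
  have a : C[zpowers (mC 14)] = C1[mC 14] := by rw [zpowers_eq_closure, centralizer_closure]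
  have : mC 15 = (mC 14)⁻¹ := eq_inv_of_mul_eq_one_left (by
    simpa [evl] using mdc.eq (w := [14, 15]) (w' := []) (by decide +kernel))
  have : mC 4 = (mC 3)⁻¹ := eq_inv_of_mul_eq_one_left (by
    simpa [evl] using mdc.eq (w := [3, 4]) (w' := []) (by decide +kernel))
  refine le_antisymm (fun x hx => (Mb.le ?_ : Mb mC [14, 15, 1, 2, 3, 4] ≤ _) (mdc.inf_le num (t := tN) (ls := N7)
    (c := fun w => cbc w [14]) (by decide +kernel) (fun _ a => cbc_of a (by norm_num))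
    ⟨a.le hx, cN.1.le (zp7 ▸ cent_le_norm _ hx)⟩)) (a ▸ cenc (by decide +kernel))
  simp [*, Mb.of]

theorem iso84 : Nonempty (Multiplicative (ZMod 7) × alternatingGroup (Fin 4) ≃* Mb mC [14, 1, 2, 3]) :=
  mdc.iso num (d := d84) (wd := fun x => dw (lget w84 0 (x.1.toAdd.val + 7 * ((x.2.1 0).val + 4 * (x.2.1 1).val))))
    (by decide +kernel) (by decide +kernel)

theorem sylow7 (φ : Suz ≃* G) (B : Sylow 7 G) :
    Nonempty (C[(B : Subgroup G)] ≃* Multiplicative (ZMod 7) × alternatingGroup (Fin 4)) ∧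
      Nat.card N[(B : Subgroup G)] = 504 := by
  obtain ⟨ψ, e⟩ := exists_equiv_syl φ (by norm_num) syl7 B
  obtain ⟨a⟩ := iso84
  rw [← e, map_cent_equiv, cent7, ← map_equiv_normalizer_eq, card_map_of_injective ψ.injective, ← zp7, cN.1]
  exact ⟨⟨(a.trans (ψ.subgroupMap _)).symm⟩, cN.2⟩

end Cfsg.Agent.SZ
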