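import Cfsg.Agent.SZ.M5
import Cfsg.Agent.SZ.D6
import Cfsg.Agent.XL.Cen3

/-! # Elements of order three in the centralizer of an involution of `Suz` -/

set_option autoImplicit false
set_option maxRecDepth 100000

namespace Cfsg.Agent.SZ

open Cfsg Cfsg.Spor Cfsg.Agent.GT Cfsg.Agent.TT Cfsg.Agent.TC Cfsg.Agent.XL Cfsg.Agent.M24 Subgroup MulAction
open scoped commutatorElement

/-- extended tables -/
noncomputable def fF (i q : ℕ) : ℕ :=
  bif Nat.ble 24 i then apw (nat_lit 11) (nat_lit 2047) (cF (Nat.sub i 24)) q else f i q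

theorem exists_mF : ∃ u : ℕ → Suz, Ma idx u fF 26 1782 ∧ (∀ i < 24, u i = m i) ∧ Mb u [24, 25] ≤ C1[m 0] := by
  refine ⟨_, ma.ext (wd := fun i => bif Nat.ble 24 i then lget wF 0 (i - 24) else i + 1) (by decide +kernel),
    fun i hi => ev1 i ▸ congrArg (evl m) (by revert i; decide +kernel), Mb.le ?_⟩
  simp only [List.forall_mem_cons]
  exact ⟨mem_cent1.2 (ev1 0 ▸ cm (by decide +kernel)), mem_cent1.2 (ev1 0 ▸ cm (by decide +kernel)), by simp⟩

theorem cls3 {x : Suz} (hx : x ∈ C1[m 0]) (o : orderOf x = 3)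
    (hc : 16 ≤ Nat.card (C1[x] ⊓ Mb m Ql : Subgroup Suz)) : ∃ g, x = g * m 12 * g⁻¹ := by
  obtain ⟨u, a, b, c⟩ := exists_mF
  have d := md.of_ma a
  have e : enumChk fF 26 1782 bs [24, 25] tS (fun w b => bor (bor (eqw fF 26 bs w [])
      (Nat.ble (wQ.filter fun u => cmb fF 26 bs u w).length 15))
      (bor (eqw fF 26 bs (12 :: dw b) (dw b ++ w)) (eqw fF 26 bs (12 :: 14 :: dw b) (14 :: dw b ++ w)))) = true := by
    decide +kernel
  obtain ⟨k, hk, h⟩ := syl_elt (a := 1) Nat.prime_three (syl_card (a := 4) (b := 40960) Nat.prime_three c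
    (d.card num e (by decide +kernel)) (cK.1 ▸ cK.2) (by norm_num)) hx (by rw [pow_one, ← o, pow_orderOf_eq_one])
  obtain ⟨w, t, l, r, p⟩ := d.enum num e _ h
  have ev : ∀ {w : List ℕ}, (∀ i ∈ w, i < 24) → evl u w = evl m w := fun h => evl_congr fun i hi => b i (h i hi)
  have lq : Lists u 26 (Mb m Ql) wQ := ⟨fun w hw => ⟨fun i hi => ((lQ.1 w hw).1 i hi).trans (by norm_num),
    ev (lQ.1 w hw).1 ▸ (lQ.1 w hw).2⟩, fun g hg => let ⟨w, a, b⟩ := lQ.2 g hg; ⟨w, a, (ev (lQ.1 w a).1).trans b⟩⟩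
  simp only [bor_eq, Bool.or_eq_true, d.eq_iff num, Nat.ble_eq, evl, evl_append, List.cons_append, r,
    b 12 (by norm_num)] at p
  rcases p with (p | p) | p | p
  · rw [conj_eq_one_iff.1 p.2] at o; simp at o
  · have := d.card_cent num lq l
    rw [r, card_cent_conj (lt0.nQ hk)] at this
    omega
  · exact ⟨k⁻¹ * evl u (dw t), by rw [mul_assoc k⁻¹, p.2]; group⟩
  · exact ⟨k⁻¹ * (evl u (dw t) * u 14), by rw [mul_assoc k⁻¹, p.2]; group⟩

theorem y_comm : m 12 ∈ ⁅C1[m 12], C1[m 12]⁆ := by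
  have a := md.eq (w := yb ++ ya) (w' := ya ++ yb ++ [12]) (by decide +kernel)
  have e := commutator_mem_commutator (mem_cent1.2 (ev1 12 ▸ cm (w := ya) (w' := [12]) (by decide +kernel)))
    (mem_cent1.2 (ev1 12 ▸ cm (w := yb) (w' := [12]) (by decide +kernel)))
  simp only [evl_append, ev1] at a
  rwa [commutatorElement_def, a, ← mul_assoc, mul_inv_cancel_right, mul_inv_cancel_right] at e

theorem exists_qt (K : Type) [Field K] [Fintype K] (hK : Fintype.card K = 9) :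
    IsSimpleGroup (PSU 4 K 3) ∧ ¬ IsMulCommutative (PSU 4 K 3) ∧ ∃ π : C1[m 12] →* PSU 4 K 3, Qt (m 12) π := by
  have h := exists_Qt (y := m 12) (by rw [oY]; decide)
  obtain ⟨a, -⟩ := U4.iso' (dsc.lt h) (dsc.ht h htR)
  obtain ⟨b⟩ := U4.iso_PSU K hK
  refine ⟨b.symm.isSimpleGroup, fun c => ?_, _, h.comp (a.symm.trans b)⟩
  obtain ⟨x, -, y, -, e⟩ := U4.lt0.nonab
  exact e (b.injective (by rw [map_mul, map_mul, c.is_comm.comm]))

theorem three {G : Type*} [Group G] [Finite G] {z : G} (φ : Suz ≃* G) (hz : φ (m 0) = z) {Q Y : Subgroup C1[z]}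
    (hQ : (Mb m Ql).map φ.toMonoidHom = Q.map (C1[z]).subtype) (hc : Nat.card Q = 2 ^ 7) (hY : Nat.card Y = 3)
    (h8 : Nat.card (⁅Q, Y⁆ : Subgroup C1[z]) = 8)
    [((Y.map (C1[z]).subtype).subgroupOf C[Y.map (C1[z]).subtype]).Normal]
    (K : Type) [Field K] [Fintype K] (hK : Fintype.card K = 9) : IsQuasisimple C[Y.map (C1[z]).subtype] ∧
      Nonempty (C[Y.map (C1[z]).subtype] ⧸ (Y.map (C1[z]).subtype).subgroupOf C[Y.map (C1[z]).subtype] ≃*
        PSU 4 K 3) ∧ (C[Y.map (C1[z]).subtype]).relIndex N[Y.map (C1[z]).subtype] = 2 := by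
  obtain ⟨x, a, o, e, u, hu, c⟩ := pull_gen φ hz hQ Nat.prime_three hY
  have := card_le_comm (Q := Q) hu
  rw [hc, h8, c] at this
  obtain ⟨g, rfl⟩ := cls3 a o (by omega)
  obtain ⟨s, n, π, h⟩ := exists_qt K hK
  obtain ⟨b, d⟩ := h.stmt ((MulAut.conj g).trans φ) n y_comm e
  refine ⟨b, d, e ▸ idx_three (t := φ (g * m 14 * g⁻¹)) (φ.orderOf_eq _ ▸ o) ?_⟩
  rw [← map_inv, ← map_inv, ← map_mul, ← map_mul, conj_inv, conj_inv, ← inv12, ← cj1 (a := 14) (b := 12) (c := 13)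
    (by decide +kernel)]
  congr 1
  simp only [mul_assoc, inv_mul_cancel_left, conj_inv, mul_inv_rev, inv_inv]

end Cfsg.Agent.SZ
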