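import Cfsg.Agent.SZ.M5
import Cfsg.Agent.SZ.D5

/-! # Sylow 5-subgroups of `Suz` -/

set_option autoImplicit false
set_option maxRecDepth 100000

namespace Cfsg.Agent.SZ

open Cfsg Cfsg.Spor Cfsg.Agent.GT Cfsg.Agent.TT Cfsg.Agent.TC Cfsg.Agent.XL Cfsg.Agent.M24 Subgroup MulAction

variable {G : Type*} [Group G] [Finite G]

theorem map_zp_conj (g a : G) : (zpowers a).map (MulAut.conj g).toMonoidHom = zpowers (g * a * g⁻¹) :=
  MonoidHom.map_zpowers _ _

theorem two_cls {X : Type*} [Group X] (φ : X ≃* G) {p : ℕ} (hp : p.Prime) {a b : X} (ha : orderOf a = p)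
    (hb : orderOf b = p) (n : ∀ g, g * b * g⁻¹ ∉ zpowers a)
    (c : ∀ x, orderOf x = p → ∃ g, g * x * g⁻¹ ∈ zpowers a ∨ g * x * g⁻¹ ∈ zpowers b) :
    ∃ A B : Subgroup G, Nat.card A = p ∧ Nat.card B = p ∧ (∀ g : G, A.map (MulAut.conj g).toMonoidHom ≠ B) ∧
      ∀ C : Subgroup G, Nat.card C = p → ∃ g : G, C.map (MulAut.conj g).toMonoidHom = A ∨
        C.map (MulAut.conj g).toMonoidHom = B := by
  haveI := Fact.mk hp
  have k : ∀ {u v : X}, φ u ∈ zpowers (φ v) ↔ u ∈ zpowers v := fun {u v} => by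
    rw [← show _ = zpowers (φ v) from MonoidHom.map_zpowers φ.toMonoidHom v]
    exact mem_map_iff_mem φ.injective
  refine ⟨zpowers (φ a), zpowers (φ b), by rw [Nat.card_zpowers, φ.orderOf_eq, ha],
    by rw [Nat.card_zpowers, φ.orderOf_eq, hb], fun g e => ?_, fun C hC => ?_⟩
  · obtain ⟨g, rfl⟩ := φ.surjective g
    refine n g⁻¹ (k.1 ?_)
    rw [inv_inv, map_mul, map_mul, map_inv]
    exact mem_conj.1 (e.ge (mem_zpowers _))
  · obtain ⟨⟨x, hx⟩, o⟩ := exists_prime_orderOf_dvd_card' (G := C) p (hC ▸ dvd_rfl)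
    obtain ⟨x, rfl⟩ := φ.surjective x
    rw [Subgroup.orderOf_mk, φ.orderOf_eq] at o
    obtain ⟨g, e⟩ := c x o
    have k' : ∀ {v}, orderOf v = p → g * x * g⁻¹ ∈ zpowers v →
        C.map (MulAut.conj (φ g)).toMonoidHom = zpowers (φ v) := fun h e => by
      rw [← eq_of_le_of_card_ge (zpowers_le.2 hx) (by rw [hC, Nat.card_zpowers, φ.orderOf_eq, o]), map_zp_conj,
        ← map_inv, ← map_mul, ← map_mul]
      exact eq_of_le_of_card_ge (zpowers_le.2 (k.2 e))
        (by simp only [Nat.card_zpowers, φ.orderOf_eq, orderOf_conj, h, o, le_refl])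
    exact ⟨φ g, e.imp (k' ha) (k' hb)⟩

theorem quot_compl {P N L : Subgroup G} (h1 : P ≤ N) (h2 : L ≤ N) [(P.subgroupOf N).Normal]
    (hc : Nat.card L * Nat.card P = Nat.card N) (co : (Nat.card L).Coprime (Nat.card P)) :
    Nonempty (N ⧸ P.subgroupOf N ≃* L) := by
  have a := Nat.card_congr (subgroupOfEquivOfLe h1).toEquiv
  have b := Nat.card_congr (subgroupOfEquivOfLe h2).toEquiv
  exact ⟨(isComplement'_of_coprime (a ▸ b ▸ hc) (a ▸ b ▸ co)).QuotientMulEquiv.trans (subgroupOfEquivOfLe h2)⟩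

/-- third tables -/
noncomputable def fG (i q : ℕ) : ℕ := apw (nat_lit 11) (nat_lit 2047) (cG i) q

theorem exists_mG : ∃ u : ℕ → Suz, Ma idx u fG 16 1782 := ⟨_, ma.ext (wd := lget wG 0) (by decide +kernel)⟩

/-- third letters -/
noncomputable def mG : ℕ → Suz := exists_mG.choose
theorem mag : Ma idx mG fG 16 1782 := exists_mG.choose_spec
theorem mdg : Md idx mG fG 16 bs := md.of_ma mag
/-- the normalizer -/
def N5 : List ℕ := [0, 1, 2, 3, 4, 5, 6, 7, 8, 9, 10, 11]

theorem evg (i : ℕ) : evl mG [i] = mG i := one_mul _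

theorem lP : Lists mG 16 (Mb mG [0, 1, 2, 3]) ([] :: wP) := mdg.lists num (t := tP) (by decide +kernel)

theorem eP : enumChk fG 16 1782 bs [0, 1, 2, 3] tP (fun w b => [[], [0], [0, 0], [1], [1, 1], [2], [2, 2], [3],
    [3, 3]].any fun x => band (bor (lsub x [0, 1]) (lsub x [2, 3])) (eqw fG 16 bs (w ++ dw b) (dw b ++ x))) = true := by
  decide +kernel

theorem cP : Nat.card (Mb mG [0, 1, 2, 3]) = 25 := mdg.card num eP (by decide +kernel)

theorem cN5 : N[Mb mG [0, 1, 2, 3]] = Mb mG N5 ∧ Nat.card (Mb mG N5) = 600 := by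
  have e : enumChk fG 16 1782 bs [9, 10, 11, 12] tF (fun w b => bor (!([] :: wP).any fun x =>
      eqw fG 16 bs (0 :: w) (w ++ x)) (band (lsub (dw b) [9, 10, 11]) (eqw fG 16 bs w (dw b)))) = true := by
    decide +kernel
  have := mag.sift (Ss := s5) (ls := N5) (N := 600) (mag.exact (ls := N5 ++ [12, 13, 14, 15]) (Ls := x5) le_top
      (mdg.card num e (N := 1920) (by decide +kernel)) exA.2.2.le (by decide +kernel)).1
    (le_inf (mdg.norms (ws := wP) (by decide +kernel)) le_top)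
    (fun _ => mag.npr lP (mdg.ne_all num (by decide +kernel)))
    (mdg.inf_le num e fun _ => mdg.nrm_any num lP (i := 0) (by norm_num) (Mb.of (by decide)))
    (Mb.mono (by decide)) (mdg.card num (t := t20) (P := fun _ _ => true) (N := 20) (by decide +kernel)
      (by decide +kernel)) (by decide +kernel)
  rwa [inf_top_eq] at this

theorem syl5 : IsPiHallOf {5} (Mb mG [0, 1, 2, 3]) ⊤ :=
  syl_card (a := 2) (b := 17933819904) (by norm_num) le_top cP exA.2.2 (by norm_num)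

theorem zp5 {i j : ℕ} (h : eqw fG 16 bs [i, j] [] = true) : Mb mG [i, j] = zpowers (mG i) := by
  have : mG j = (mG i)⁻¹ := eq_inv_of_mul_eq_one_left (by simpa [evl] using mdg.eq h)
  exact le_antisymm (Mb.le (by simp [this])) (zpowers_le.2 (Mb.of (by simp)))

theorem cls5 (x : Suz) (hx : orderOf x = 5) :
    ∃ g, g * x * g⁻¹ ∈ zpowers (mG 0) ∨ g * x * g⁻¹ ∈ zpowers (mG 2) := by
  obtain ⟨g, -, e⟩ := syl_elt (a := 1) (by norm_num) syl5 (mem_top x) (by rw [pow_one, ← hx, pow_orderOf_eq_one])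
  obtain ⟨w, b, -, c, p⟩ := mdg.enum num eP _ e
  simp only [List.any_eq_true, band_eq, bor_eq, Bool.and_eq_true, Bool.or_eq_true] at p
  obtain ⟨u, -, a, d⟩ := p
  have := mdg.eq d
  rw [evl_append, evl_append, c, ← mul_inv_eq_iff_eq_mul] at this
  refine ⟨evl mG (dw b) * g, ?_⟩
  rw [show evl mG (dw b) * g * x * (evl mG (dw b) * g)⁻¹ = evl mG u by rw [← this]; group,
    ← zp5 (j := 1) (by decide +kernel), ← zp5 (j := 3) (by decide +kernel)]
  exact a.imp Mb.ev' Mb.ev'

theorem o5 : orderOf (mG 0) = 5 ∧ orderOf (mG 2) = 5 :=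
  ⟨evg 0 ▸ mdg.ord num (by norm_num) (by decide +kernel), evg 2 ▸ mdg.ord num (by norm_num) (by decide +kernel)⟩

theorem nc5 (g : Suz) : g * mG 2 * g⁻¹ ∉ zpowers (mG 0) := fun h => by
  have a := mem_zp_of_prime (by rw [o5.1]; norm_num) h fun e => by
    have := o5.2; rw [conj_eq_one_iff.1 e] at this; simp at this
  have c : nall 1782 (fun q => bor (!Nat.beq (fG 0 q) q) (bor (Nat.beq q 1194) (Nat.beq q 1382))) = true := by
    decide +kernel
  have k : ∀ x : Fin 1782, fG 2 x = x → (g • x).val = 1194 ∨ (g • x).val = 1382 := fun x e => by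
    have := (nall_iff _ _).1 c _ (g • x).2
    simp only [bor_eq, Bool.or_eq_true, Bool.not_eq_true', ← Bool.not_eq_true, Nat.beq_eq] at this
    refine this.resolve_left fun o => o ((mag.act 0 (by norm_num) _).symm.trans (congrArg idx ?_))
    refine (zpowers_le.2 ?_ : _ ≤ stabilizer Suz (g • x)) a
    rw [mem_stabilizer_iff, mul_smul, mul_smul, inv_smul_smul, Fin.ext ((mag.act 2 (by norm_num) x).trans e)]
  have k0 := k 0 (by decide +kernel)
  have k1 := k 167 (by decide +kernel)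
  have k2 := k 238 (by decide +kernel)
  have n : ∀ x y : Fin 1782, x ≠ y → (g • x).val ≠ (g • y).val := fun x y e o =>
    e (smul_left_cancel g (Fin.ext o))
  have := n 0 167 (by decide)
  have := n 0 238 (by decide)
  have := n 167 238 (by decide)
  omega

/-- images of the letters -/
def d24 (i : ℕ) : Multiplicative (ZMod 4) × Equiv.Perm (Fin 3) :=
  if i = 4 then (Multiplicative.ofAdd 1, 1) else
    (1, if i = 6 then Equiv.swap 0 2 * Equiv.swap 0 1 else Equiv.swap 0 1)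

theorem iso24 : Nonempty (Multiplicative (ZMod 4) × Equiv.Perm (Fin 3) ≃* Mb mG [4, 6, 8]) :=
  mdg.iso num (d := d24) (wd := fun x => dw (lget w24 0 (x.1.toAdd.val + 4 * ((x.2 0).val + 3 * (x.2 1).val))))
    (by decide +kernel) (by decide +kernel)

theorem sylow5 (φ : Suz ≃* G) (P : Sylow 5 G) : Nat.card (P : Subgroup G) = 25 ∧
    Nat.card N[(P : Subgroup G)] = 600 ∧ Nonempty (N[(P : Subgroup G)] ⧸ (P : Subgroup G).subgroupOf
      N[(P : Subgroup G)] ≃* Multiplicative (ZMod 4) × Equiv.Perm (Fin 3)) := by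
  obtain ⟨ψ, e⟩ := exists_equiv_syl φ (by norm_num) syl5 P
  obtain ⟨a⟩ := iso24
  have c1 : Nat.card (P : Subgroup G) = 25 := by rw [← e, card_map_of_injective ψ.injective, cP]
  have e2 : N[(P : Subgroup G)] = (Mb mG N5).map ψ.toMonoidHom := by rw [← e, ← map_equiv_normalizer_eq, cN5.1]
  have c2 : Nat.card N[(P : Subgroup G)] = 600 := by rw [e2, card_map_of_injective ψ.injective, cN5.2]
  have c3 : Nat.card ((Mb mG [4, 6, 8]).map ψ.toMonoidHom) = 24 := by
    rw [card_map_of_injective ψ.injective, ← Nat.card_congr a.toEquiv]; simp [Fintype.card_perm, Nat.factorial]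
  obtain ⟨b⟩ := quot_compl (P := (P : Subgroup G)) (L := (Mb mG [4, 6, 8]).map ψ.toMonoidHom) le_normalizer
    (e2.symm ▸ map_mono (Mb.mono (by decide)))
    (by rw [c1, c2, c3]) (by rw [c1, c3]; norm_num)
  exact ⟨c1, c2, ⟨b.trans (a.trans (ψ.subgroupMap _)).symm⟩⟩

end Cfsg.Agent.SZ
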