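import Cfsg.Agent.SZ.D0
import Cfsg.Agent.SZ.D1
import Cfsg.Agent.SZ.TA
import Cfsg.Agent.SZ.TB
import Cfsg.Agent.SZ.TC
import Cfsg.Agent.SZ.TD
import Cfsg.Agent.SZ.TE
import Cfsg.Agent.XL.Sift
import Cfsg.Prelude.Def_Spor_Suz

/-! # The presented group `Suz` and its action on 1782 points -/

set_option autoImplicit false
set_option maxRecDepth 100000

namespace Cfsg.Agent.SZ

open Cfsg Cfsg.Spor Cfsg.Spor.Suz Cfsg.Agent.GT Cfsg.Agent.TT Cfsg.Agent.TC Cfsg.Agent.XL Cfsg.Agent.M24 Subgroup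
  MulAction

/-- enumeration of the generators -/
def en (n : ℕ) : Gen := [Gen.c, .d, .a, .b, .e, .f, .g].getD n .a

/-- index of a generator -/
def ix : Gen → ℕ
  | .c => 0 | .d => 1 | .a => 2 | .b => 3 | .e => 4 | .f => 5 | .g => 6

theorem en_ix (x : Gen) : en (ix x) = x := by cases x <;> rfl

theorem ix_lt (x : Gen) : ix x < 7 := by cases x <;> decide

/-- the further relators -/
def ex : List (List ℕ) :=
  [pww [0, 1] 4 ++ [2], pww [5, 6] 2 ++ [2], pww [5, 0, 3, 2] 5, pww [6, 5, 3] 5,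
    pww (4 :: pww [1, 0, 1, 0, 3] 5) 3]

/-- labels -/
def lab (i j : ℕ) : ℕ := coxLabel edges (en i) (en j)

theorem pb : PB.{0} 7 (fun i => i) (cxb 7 lab ++ ex) 448345497600 :=
  ((((SzTA.cert.pb0.step (base := SzTB.base) SzTB.cert (by decide +kernel)).step
    (base := SzTC.base) SzTC.cert (by decide +kernel)).step
    (base := SzTD.base) SzTD.cert (by decide +kernel)).step
    (base := SzTE.base) SzTE.cert (by decide +kernel)).congr (by decide +kernel)

theorem ex_iff {D : Type*} [Group D] {v : ℕ → D} (h : ∀ i < 7, v i * v i = 1) :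
    (∀ r ∈ extra, FreeGroup.lift (fun x => v (ix x)) r = 1) ↔ ∀ l ∈ ex, evl v l = 1 := by
  have k : ∀ i < 7, (v i)⁻¹ = v i := fun i hi => inv_eq_of_mul_eq_one_right (h i hi)
  simp [extra, ex, evl_pww, evl_append, evl, ix, ← inv_pow, k, mul_assoc]

theorem sat : Sat 7 (cxb 7 lab ++ ex) fun i => cxo edges extra (en i) :=
  sat_cox (fun x => by cases x <;> decide) en fun l hl => ⟨by revert l; decide +kernel,
    (ex_iff fun i _ => by
      simpa [coxLabel] using cox_rel (extra := extra) (fun x => by cases x <;> decide) (en i) (en i)).1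
      (fun r hr => by simpa only [en_ix] using cox_extra hr) l hl⟩

theorem card_le : Finite Suz ∧ Nat.card Suz ≤ 448345497600 := sat.card_le pb (cox_top' en_ix ix_lt)

instance finSuz : Finite Suz := card_le.1

/-- first tables -/
noncomputable def fB (i q : ℕ) : ℕ := apw (nat_lit 11) (nat_lit 2047) (cB i) q
/-- action of the letters -/
noncomputable def f (i q : ℕ) : ℕ := apw (nat_lit 11) (nat_lit 2047) (cA i) q

theorem exists_act : ∃ φ : Suz →* Equiv.Perm (Fin 1782), ∀ i < 7, ∀ x : Fin 1782,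
    (φ (cxo edges extra (en i)) • x).val = fB i x.val := by
  obtain ⟨u, hu⟩ := invTab_sound (f := fB) (k := 7) (n := 1782) (by decide +kernel)
  have c : ((cxb 7 lab ++ ex).all fun l => ptEq 1782 (apl fB l) fun q => q) = true := by decide +kernel
  have s : Sat 7 (cxb 7 lab ++ ex) u := ⟨fun i hi => (hu i hi).1, fun l h => ⟨(sat.2 l h).1,
    ptEq_sound (List.all_eq_true.1 c l h) (apl_evl fun i hi => (hu i ((sat.2 l h).1 i hi)).2) fun _ => rfl⟩⟩
  obtain ⟨φ, e⟩ := s.lift en_ix ix_lt ((ex_iff s.1).2 fun l hl => (s.2 l (List.mem_append_right _ hl)).2)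
  refine ⟨φ, fun i hi x => ?_⟩
  rw [e, show ix (en i) = i by revert i; decide, (hu i hi).2]

noncomputable instance actSuz : MulAction Suz (Fin 1782) := MulAction.compHom _ exists_act.choose

/-- index of a point -/
abbrev idx : Fin 1782 → ℕ := Fin.val

theorem exists_m : ∃ m : ℕ → Suz, Ma idx m f 24 1782 :=
  have a : Ma idx (fun i => cxo edges extra (en i)) fB 7 1782 :=
    ⟨Fin.val_injective, exists_act.choose_spec, fun x => x.2, fun q hq => ⟨⟨q, hq⟩, rfl⟩⟩
  ⟨_, (a.ext (wd := lget wB 0) (f' := fB) (k' := 18) (by decide +kernel)).ext (wd := lget wA 0)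
    (by decide +kernel)⟩

/-- the letters -/
noncomputable def m : ℕ → Suz := exists_m.choose

theorem ma : Ma idx m f 24 1782 := exists_m.choose_spec

/-- generators -/
def Al : List ℕ := [20, 16, 15, 23, 14, 21, 12, 4, 5, 6, 7, 8, 9, 10, 11, 2, 0, 1, 3, 13, 22]
/-- the centralizer -/
def Kl : List ℕ := [0, 1, 2, 3, 4, 5, 6, 7, 8, 9, 10, 11, 12, 13, 14, 15, 16]
/-- the base -/
def bs : List ℕ := [114, 1141, 1781, 1752]

theorem exA : Ex idx ⊤ (Mb m []) lA [] ∧ ⊤ = Mb m Al ∧ Nat.card (⊤ : Subgroup Suz) = 448345497600 :=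
  ma.exact le_top card_nil (card_top.trans_le card_le.2) (by decide +kernel)

theorem card_X : Nat.card Suz = 448345497600 := card_top.symm.trans exA.2.2

theorem exX : Ex idx ⊤ (Mb m []) lX [] :=
  (ma.exact (ls := Al) le_top card_nil (card_top.trans_le card_le.2) (by decide +kernel)).1

theorem md : Md idx m f 24 bs := ma.md exA.1.last

theorem num : Md.Num idx 1782 bs := ma.num (by decide)

theorem ev1 (i : ℕ) : evl m [i] = m i := one_mul _

theorem cK : C1[m 0] = Mb m Kl ∧ Nat.card (Mb m Kl) = 3317760 := by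
  have := ma.sift (C := C1[m 0]) (Ss := sK) (ls := Kl) (N := 3317760) (pr := cpr f [[0]]) exX
    (le_inf (ev1 0 ▸ md.cent (by decide +kernel)) le_top)
    (fun g hg => ma.cpr (by decide) (by simpa [ev1, Commute, SemiconjBy] using mem_cent1.1 hg)) inf_le_right le_rfl card_nil
    (by decide +kernel)
  rwa [inf_top_eq] at this

end Cfsg.Agent.SZ
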