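import Cfsg.Agent.SZ.M0
import Cfsg.Agent.SZ.D2
import Cfsg.Agent.XL.Fac

/-! # Local subgroups of `Suz` -/

set_option autoImplicit false
set_option maxRecDepth 100000

namespace Cfsg.Agent.SZ

open Cfsg Cfsg.Spor Cfsg.Agent.GT Cfsg.Agent.TT Cfsg.Agent.TC Cfsg.Agent.XL Cfsg.Agent.M24 Subgroup MulAction

/-- equality of words -/
noncomputable abbrev eq : List ℕ → List ℕ → Bool := eqw f 24 bs
/-- commuting words -/
noncomputable abbrev cb : List ℕ → List ℕ → Bool := cmb f 24 bs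
/-- the extraspecial group -/
def Ql : List ℕ := [0, 1, 2, 10, 18, 19, 15]
/-- the part centralized by `y` -/
def Rl : List ℕ := [0, 1, 2, 10, 15]
/-- a complement -/
def A5 : List ℕ := [8, 9, 12, 13, 14]
/-- centralizer of `z` and `y` -/
def KY : List ℕ := [0, 1, 2, 3, 10, 11, 12, 13, 15, 16, 17]
/-- centralizer of the four-group -/
def Vl : List ℕ := [0, 1, 2, 3, 4, 5, 6, 7, 8, 9, 10, 11, 12, 13, 14]
/-- centralizer of the four-group and `y` -/
def VY : List ℕ := [0, 1, 2, 3, 10, 11, 12, 13]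
/-- the radical of the second parabolic -/
def Bl : List ℕ := [0, 1, 2, 3, 4, 5, 6, 7, 8, 9]
/-- its supplement -/
def MY : List ℕ := [0, 1, 2, 3, 10, 11, 12, 13, 15, 16, 20]

theorem cm {w w' : List ℕ} (h : cb w w' = true) : Commute (evl m w) (evl m w') := ((md.cm_iff num).1 h).2

theorem cm1 {i j : ℕ} (h : cb [i] [j] = true) : Commute (m i) (m j) := by simpa [ev1] using cm h

theorem cen1 {ls : List ℕ} {j : ℕ} (h : lall ls (fun i => cb [i] [j]) = true) : Mb m ls ≤ C1[m j] :=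
  ev1 j ▸ md.cent h

theorem cb_of {w : List ℕ} {j : ℕ} (hw : ∀ i ∈ w, i < 24) (hj : j < 24) (h : evl m w ∈ C1[m j]) :
    cb w [j] = true := (md.cm_iff num).2 ⟨⟨hw, by simpa using hj⟩, ev1 j ▸ mem_cent1.1 h⟩

theorem cpr1 {j : ℕ} (hj : j < 24) : ∀ g ∈ C1[m j], ∀ x, cpr f [[j]] (idx x) (idx (g • x)) = true :=
  fun _ hg => ma.cpr (by simpa [llt_iff] using hj) (by simpa [ev1, Commute, SemiconjBy] using mem_cent1.1 hg)

theorem lQ : Lists m 24 (Mb m Ql) wQ := md.lists num (t := tQ) (by decide +kernel)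
theorem lR : Lists m 24 (Mb m Rl) wR := md.lists num (t := tR) (by decide +kernel)
theorem esQ : ES (Mb m Ql) (m 0) := md.es num lQ (by decide +kernel)
theorem esR : ES (Mb m Rl) (m 0) :=
  let ⟨a, b⟩ := md.zc num lR (j := 0) (by decide +kernel); esQ.sub (Mb.mono (by decide)) a b

theorem eA5 : enumChk f 24 1782 bs A5 tA5 (fun w b => bor (!cb w [12])
    (band (lsub (dw b) [12, 13]) (eq w (dw b)))) = true := by decide +kernel
theorem card5 : Nat.card (Mb m A5) = 60 := md.card num eA5 (by decide +kernel)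
theorem yA5 : C1[m 12] ⊓ Mb m A5 ≤ Mb m [12, 13] := md.inf_le num eA5 fun _ a => cb_of a (by norm_num)
theorem cZ : Nat.card (Mb m [0]) = 2 :=
  md.card num (t := tZ) (P := fun _ _ => true) (by decide +kernel) (by decide +kernel)
theorem cY : Nat.card (Mb m [12, 13]) = 3 :=
  md.card num (t := tY) (P := fun _ _ => true) (by decide +kernel) (by decide +kernel)

theorem cKY : C1[m 12] ⊓ Mb m Kl = Mb m KY ∧ Nat.card (Mb m KY) = 3456 :=
  ma.sift (Ss := sY) (ma.exact (Ls := kA) le_rfl card5 cK.2.le (by decide +kernel)).1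
    (le_inf (cen1 (by decide +kernel)) (cK.1 ▸ cen1 (by decide +kernel))) (cpr1 (by norm_num)) yA5
    (Mb.mono (by decide)) cY (by decide +kernel)

theorem cV : C1[m 1] ⊓ Mb m Kl = Mb m Vl ∧ Nat.card (Mb m Vl) = 61440 :=
  ma.sift (Ss := sV) (ma.exact (Ls := kB) le_rfl card5 cK.2.le (by decide +kernel)).1
    (le_inf (cen1 (by decide +kernel)) (Mb.mono (by decide))) (cpr1 (by norm_num)) inf_le_right le_rfl card5
    (by decide +kernel)

theorem cV' : C1[m 0] ⊓ C1[m 1] = Mb m Vl := by rw [cK.1, inf_comm, cV.1]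

theorem cVY : C1[m 12] ⊓ Mb m Vl = Mb m VY ∧ Nat.card (Mb m VY) = 192 :=
  ma.sift (Ss := sW) (ma.exact (Ls := sV) le_rfl card5 cV.2.le (by decide +kernel)).1
    (le_inf (cen1 (by decide +kernel)) (Mb.mono (by decide))) (cpr1 (by norm_num)) yA5
    (Mb.mono (by decide)) cY (by decide +kernel)

theorem cQ : (C[Mb m Ql] ⊔ Mb m Ql) ⊓ Mb m Kl = Mb m Ql ∧ Nat.card (Mb m Ql) = 128 :=
  ma.sift (Ss := sQ) (ma.exact (Ls := kC) le_rfl cZ cK.2.le (by decide +kernel)).1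
    (le_inf le_sup_right (cK.1 ▸ esQ.le_cent1)) (fun _ => ma.qpr (by norm_num) esQ lQ) inf_le_right le_rfl cZ
    (by decide +kernel)

theorem gz : m 21 * m 0 * (m 21)⁻¹ = m 1 := mul_inv_eq_iff_eq_mul.2 (by
  simpa [evl] using md.eq (w := [0, 21]) (w' := [21, 1]) (by decide +kernel))

theorem ne10 : m 1 ≠ m 0 := by simpa [evl] using md.ne' num (w := [1]) (w' := [0]) (by decide +kernel)

theorem lt0 : LT (Mb m Ql) (m 0) (m 21) 3 25920 :=
  ⟨⟨esQ, fun _ hc => cQ.1.le ⟨mem_sup_left hc, cK.1 ▸ cent_le_cent1 esQ.mem hc⟩,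
    cK.1 ▸ md.norms (ws := nQ) (by decide +kernel)⟩, cQ.2, by rw [cK.1, cK.2, cQ.2],
    gz ▸ Mb.of (by decide), gz ▸ ne10⟩

theorem hs (H : Subgroup Suz) (h : ∀ u ∈ C1[m 0] ⊓ C1[m 1], u * u ∈ H) : C1[m 0] ⊓ C1[m 1] ≤ H := by
  rw [cV'] at h ⊢
  exact md.sqgen (sq := fun i => sqV.getD i []) (by decide +kernel) H h

theorem inv12 : m 13 = (m 12)⁻¹ := eq_inv_of_mul_eq_one_left (by
  simpa [evl] using md.eq (w := [12, 13]) (w' := []) (by decide +kernel))

theorem zpY : Mb m [12, 13] = zpowers (m 12) :=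
  le_antisymm (Mb.le (by simp [inv12])) (zpowers_le.2 (Mb.of (by decide)))

theorem oY : orderOf (m 12) = 3 := by rw [← Nat.card_zpowers, ← zpY, cY]

theorem dsc : Dsc (Mb m Rl) (m 0) (m 21) (m 12) 2 36 := by
  have c : Nat.card (Mb m Rl) = 32 :=
    md.card num (t := tR) (P := fun _ _ => true) (by decide +kernel) (by decide +kernel)
  have e : C1[m 0] ⊓ C1[m 12] = Mb m KY := by rw [cK.1, inf_comm, cKY.1]
  refine ⟨esR, cen1 (by decide +kernel), mem_cent1.2 (cm1 (by decide +kernel)), c, by rw [e, cKY.2, c, oY],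
    e ▸ md.norms (ws := nR) (by decide +kernel), fun x a b => ?_, gz ▸ Mb.of (by decide), gz ▸ ne10⟩
  refine (Mb.le ?_ : Mb m [0, 12, 13] ≤ _) (md.inf_le num (C := C[Mb m Rl]) (t := tW) (ls := VY)
    (c := fun w => lall Rl fun i => cb w [i]) (by decide +kernel) (fun w u v => (lall_iff _ _).2 fun i hi =>
      cb_of u (by clear v; revert i; decide) (cent_le_cent1 (Mb.of hi) v))
    ⟨b, cVY.1.le ⟨a.2, cV'.le ⟨a.1, cent_le_cent1 (Mb.of (by decide)) b⟩⟩⟩)
  simp only [List.forall_mem_cons, inv12, inv_mem_iff]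
  exact ⟨mem_sup_left esR.mem, mem_sup_right (mem_zpowers _), mem_sup_right (mem_zpowers _), by simp⟩

theorem htR : ∀ x ∈ Mb m Rl, x ∈ cj[m 21] (Mb m Rl) → x ∈ VV (m 0) (m 21 * m 0 * (m 21)⁻¹) :=
  md.ht num lR (j := 1) (g' := 22) (by decide +kernel)

theorem infB : C1[m 12] ⊓ Mb m Bl ≤ Mb m [0, 1, 2, 3] :=
  md.inf_le num (t := tB) (c := fun w => cb w [12]) (by decide +kernel) fun _ a => cb_of a (by norm_num)

theorem normB : Mb m MY ≤ N[Mb m Bl] := md.norms (ws := nB) (by decide +kernel)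

end Cfsg.Agent.SZ
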