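import Cfsg.Agent.SZ.M1
import Cfsg.Agent.SZ.TG
import Cfsg.Agent.SZ.TS
import Cfsg.Agent.XL.Desc

/-! # The embedding of `Suz` -/

set_option autoImplicit false
set_option maxRecDepth 100000

namespace Cfsg.Agent.SZ

open Cfsg Cfsg.Spor Cfsg.Agent.GT Cfsg.Agent.TT Cfsg.Agent.TC Cfsg.Agent.XL Cfsg.Agent.M24 Subgroup MulAction

/-- inverse letters -/
noncomputable def iv : ℕ → ℕ :=
  lget [0, 1, 2, 3, 4, 5, 6, 7, 8, 9, 10, 11, 13, 12, 14, 15, 16, 17, 18, 19, 20, 22, 21, 23] 0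
/-- letters in the centralizer -/
def Kx : List ℕ := [0, 1, 2, 3, 4, 5, 6, 7, 8, 9, 10, 11, 12, 13, 14, 15, 16, 17, 18, 19]
/-- letters in the normalizer of the four-group -/
def Nl : List ℕ := [0, 1, 2, 3, 4, 5, 6, 7, 8, 9, 10, 11, 12, 13, 14, 15, 20, 21, 22]
/-- the second parabolic -/
def BM : List ℕ := [0, 1, 2, 3, 4, 5, 6, 7, 8, 9, 10, 11, 12, 13, 15, 16, 20, 21, 22, 23]
/-- a parabolic of `G₂(4)` -/
def P1 : List ℕ := [0, 1, 2, 3, 4, 5, 6, 7, 8, 9, 10, 11, 12, 13, 14, 21, 22]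
/-- generators of `G₂(4)` -/
def G2 : List ℕ := [0, 1, 2, 3, 4, 5, 6, 7, 8, 9, 10, 11, 12, 14, 21, 23, 13, 22]

theorem s1 : stepChk f iv 24 bs [Kx, Nl, BM] [pww [14, 23] 6] G2 P1 SzTG.iv SzTG.base 229375 = true ∧
    orbLe f G2 P1 1781 1782 1365 l1t = true := by decide +kernel

theorem s2 : stepChk f iv 24 bs [Kx, Nl, BM, G2] [] Al G2 SzTS.iv SzTS.base 2097144 = true ∧
    orbLe f Al G2 1752 1782 1782 l0t = true := by decide +kernel

theorem cj1 {a b c : ℕ} (e : eq [b, a] [a, c] = true) : m a * m b * (m a)⁻¹ = m c :=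
  mul_inv_eq_iff_eq_mul.2 (by simpa [evl, mul_assoc] using md.eq e)

theorem cj2 {a b c d : ℕ} (e : eq [b, a] [a, d, c] = true) : m a * m b * (m a)⁻¹ = m c * m d :=
  mul_inv_eq_iff_eq_mul.2 (by simpa [evl, mul_assoc] using md.eq e)

theorem v4 : V4 (m 0) (m 1) (m 15) (m 20) :=
  ⟨esQ.zz, gz ▸ conj_mul_self _ esQ.zz, cm1 (by decide +kernel), esQ.ne,
    fun e => esQ.ne (conj_eq_one_iff.1 (gz.trans e)), ne10, cj1 (by decide +kernel), cj2 (by decide +kernel),
    cj2 (by decide +kernel), cj1 (by decide +kernel)⟩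

theorem nl_norm : ∀ i ∈ Nl, m i ∈ N[VV (m 0) (m 1)] := fun i hi => by
  have := md.norms (ls := Nl) (ls0 := [0, 1]) (ws := [[0], [1], [0, 1]]) (by decide +kernel) (Mb.of hi)
  rwa [Mb, show m '' {i | i ∈ [0, 1]} = {m 0, m 1} by simp [← Set.image_pair]; rfl] at this

theorem inv_ok : ∀ i < 21, iv i < 21 ∧ m (iv i) * m i = 1 ∧ (iv i = 20 ↔ i = 20) ∧
    (i ≠ 20 → Commute (m i) (m 0)) := fun i hi => by
  have c : nall 21 (fun i => band (band (Nat.ble (Nat.succ (iv i)) 21) (eq [i, iv i] []))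
    (band (Nat.beq (iv i) 20 == Nat.beq i 20) (bor (Nat.beq i 20) (cb [i] [0])))) = true := by decide +kernel
  replace c := (nall_iff _ _).1 c i hi
  simp only [band_eq, bor_eq, Bool.and_eq_true, Bool.or_eq_true, md.eq_iff num, md.cm_iff num,
    Nat.ble_eq, evl, one_mul, beq_iff_eq, Nat.beq_eq] at c
  exact ⟨c.1.1, c.1.2.2, by rw [← Nat.beq_eq, c.2.1, Nat.beq_eq], fun e => (c.2.2.resolve_left e).2⟩

variable {G : Type*} [Group G] [Finite G] {K M : Subgroup (Suz × G)} {z : G} {v : ℕ → Suz × G}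

/-- the starting amalgam -/
structure St (v : ℕ → Suz × G) (K M : Subgroup (Suz × G)) (z : G) : Prop where
  am : AM m v iv 24
  rh : RH (m 0) (m 1) z K M
  k : Mb v Kx ≤ K
  n : Mb v Nl ≤ M
  a : v 21 ∈ Mb v MY ∧ v 22 ∈ Mb v MY ∧ v 23 = evl v [10, 16, 20, 16, 10]

theorem exists_St (h : RH (m 0) (m 1) z K M) : ∃ v, St v K M z := by
  obtain ⟨u, a, b, c⟩ := h.start (j := 20) v4.nb
    (by simpa [evl] using md.eq (w := [20, 20]) (w' := []) (by decide +kernel)) inv_ok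
  obtain ⟨v, a', e0, e1⟩ := a.extend md
    (wd := fun i => [[20, 15], [15, 20], [10, 16, 20, 16, 10]].getD (i - 21) []) (by decide +kernel) (by norm_num)
  have n : ∀ i < 21, i ∈ Nl → v i ∈ M := fun i hi o => e0 i hi ▸ c i hi (nl_norm i o)
  have n1 := n 15 (by norm_num) (by decide)
  have n2 := n 20 (by norm_num) (by decide)
  have e21 := e1 21 (by norm_num) le_rfl
  have e22 := e1 22 (by norm_num) (by norm_num)
  refine ⟨v, a', h, Mb.le fun i hi => ?_, Mb.le fun i hi => ?_, e21 ▸ Mb.ev (by decide), e22 ▸ Mb.ev (by decide),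
    e1 23 (by norm_num) (by norm_num)⟩
  · have : i < 20 := by revert i; decide
    exact e0 i (by omega) ▸ b i (by omega) (by omega)
  · have : i < 21 ∨ i = 21 ∨ i = 22 := by revert i; decide
    rcases this with o | rfl | rfl
    exacts [n i o hi, e21 ▸ mul_mem (mul_mem (one_mem _) n1) n2, e22 ▸ mul_mem (mul_mem (one_mem _) n2) n1]

theorem St.gk (s : St v K M z) : Gr (Mb v Kx) := s.rh.kz.gr.mono s.k
theorem St.gn (s : St v K M z) : Gr (Mb v Nl) := s.rh.gn.mono s.n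
theorem St.y (s : St v K M z) : (m 12, (v 12).2) ∈ K :=
  s.am.fst 12 (by norm_num) ▸ s.k (Mb.of (i := 12) (by decide))

theorem St.ker (s : St v K M z) : ∀ p ∈ GY K M (m 12) (v 12).2, p.1 = 1 → p.2 ∈ zpowers (v 12).2 :=
  RH.ker4 (gz ▸ s.rh) dsc htR s.y (by rw [oY]; decide)

theorem St.memK (s : St v K M z) {i : ℕ} (h : band (lm Kx i) (cb [i] [12]) = true) :
    v i ∈ GY K M (m 12) (v 12).2 := by
  rw [band_eq, Bool.and_eq_true, lm_iff] at h
  exact mem_sup_left (s.rh.kz.gr.memY s.y (s.k (Mb.of h.1))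
    (s.am.fst i (by have := h.1; clear h; revert i; decide) ▸ cm1 h.2))

theorem St.leY (s : St v K M z) : Mb v MY ≤ GY K M (m 12) (v 12).2 := Mb.le fun i hi => by
  have : i = 20 ∨ band (lm Kx i) (cb [i] [12]) = true := by revert i; decide +kernel
  refine this.elim (fun e => e ▸ mem_sup_right (s.rh.gn.memY ?_ (s.n (Mb.of (by decide)))
    (s.am.fst 20 (by norm_num) ▸ cm1 (by decide +kernel)))) s.memK
  exact s.am.fst 12 (by norm_num) ▸ s.n (Mb.of (i := 12) (by decide))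

theorem St.gb (s : St v K M z) : Gr (Mb v BM) := by
  have b1 : Mb v Bl ≤ Mb v Kx := Mb.mono (by decide)
  have l : ∀ i ∈ Bl, i < 24 := by decide
  have n : Mb v MY ≤ N[Mb v Bl] := Mb.le fun i hi => by
    have a := normB (Mb.of hi)
    rw [← s.am.fst i (by clear a; revert i; decide)] at a
    have : i ∈ Kx ∨ i ∈ Nl := by clear a; revert i; decide
    exact this.elim (fun o => s.am.norm s.gk l b1 (Mb.of o) a)
      fun o => s.am.norm s.gn l (Mb.mono (by decide)) (Mb.of o) a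
  have g := s.rh.kz.gr_of_ker s.y (by rw [oY]; norm_num) (fun p a => s.ker p (s.leY a)) (b1.trans s.k) n
    (Mb.of (i := 4) (by decide)) fun e => absurd (cb_of (w := [4]) (j := 12) (by decide) (by norm_num)
      (mem_cent1.2 (by rwa [ev1, ← s.am.fst 4 (by norm_num)]))) (by decide +kernel)
  refine (Gr.sup (s.gk.mono b1) g n fun p a r b e => ?_).mono (Mb.le fun i hi => ?_)
  · obtain ⟨q, c, d⟩ := s.am.lift (ls := [0, 1, 2, 3]) (by decide)
      (infB ⟨e ▸ (GY.le (s.leY b)).1, s.am.mem l a⟩)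
    exact s.gk.ext (Mb.mono (by decide) c) (b1 a) d ▸ Mb.mono (by decide) c
  · have : i ∈ Bl ∨ i ∈ MY ∨ i = 21 ∨ i = 22 ∨ i = 23 := by revert i; decide
    rcases this with o | o | rfl | rfl | rfl
    exacts [mem_sup_left (Mb.of o), mem_sup_right (Mb.of o), mem_sup_right s.a.1, mem_sup_right s.a.2.1,
      mem_sup_right (s.a.2.2 ▸ Mb.ev (by decide))]

theorem St.J (s : St v K M z) : evl v (pww [14, 23] 6) = 1 := by
  have k : ∀ {ls a c}, Gr (Mb v ls) → band (band (lsub [a, 14] ls) (lsub [14, c] ls)) (eq [a, 14] [14, c]) = true →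
      v 14 * v a * (v 14)⁻¹ = v c := fun g e =>
    mul_inv_eq_iff_eq_mul.2 (by simpa [evl] using s.am.eq' md g e)
  have t : (v 14)⁻¹ = v 14 := inv_eq_of_mul_eq_one_left (s.am.inv 14 (by norm_num)).2
  have n : v 23 ∈ GY K M (m 12) (v 12).2 := s.leY (s.a.2.2 ▸ Mb.ev (by decide))
  have a : v 14 * v 23 * (v 14)⁻¹ ∈ GY K M (m 12) (v 12).2 := by
    have b := s.leY (Mb.of (i := 2) (by decide))
    have c := s.memK (i := 17) (by decide +kernel)
    rw [s.a.2.2]
    simp only [evl, one_mul, ← conj_mul, k (a := 10) (c := 2) s.gk (by decide +kernel),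
      k (a := 16) (c := 17) s.gk (by decide +kernel), k (a := 20) (c := 20) s.gn (by decide +kernel)]
    exact mul_mem (mul_mem (mul_mem (mul_mem b c) (s.leY (Mb.of (by decide)))) c) b
  have e : (evl v (pww [14, 23] 6)).1 = 1 :=
    (s.am.ev (by decide)).trans (md.eq (w' := []) (by decide +kernel))
  refine Prod.ext e (eq_one_of_inv (r := (v 23 * v 14).2) (by rw [s.rh.kz.ord s.y, oY]; decide)
    (s.ker _ ?_ e) ?_ ?_)
  · rw [evl_pww, show 6 = 2 * 3 from rfl, pow_mul, sq]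
    simp only [evl, one_mul]
    rw [mul_assoc, ← mul_assoc (v 14)]
    rw [t] at a
    exact pow_mem (mul_mem n a) 3
  · rw [evl_pww]
    simpa [evl] using Commute.self_pow _ 6
  · have b := congrArg Prod.snd (k (a := 12) (c := 13) s.gk (by decide +kernel))
    rw [eq_inv_of_mul_eq_one_left (a := v 13) (s.am.inv 12 (by norm_num)).2] at b
    have c := commute_iff_conj.1 (show Commute _ _ from mem_cent1.1 (GY.le n).2).inv_right
    simp only [Prod.snd_mul, Prod.snd_inv] at b ⊢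
    rw [← c, ← b]; group

theorem St.ga (s : St v K M z) : Gr (Mb v Al) :=
  have a := (s.am.step md SzTG.cert rfl (by simp [s.gk, s.gn, s.gb]) (List.forall_mem_singleton.2 s.J)
    (s.gn.mono (Mb.mono (by decide))) s1.1 ma.inj ma.act (x := ⟨1781, by norm_num⟩) rfl s1.2).1
  (s.am.step md SzTS.cert rfl (by simp [s.gk, s.gn, s.gb, a]) (by simp) a s2.1 ma.inj ma.act
    (x := ⟨1752, by norm_num⟩) rfl s2.2).1

theorem emb (h : RH (m 0) (m 1) z K M) :
    ∃ φ : Suz →* G, Function.Injective φ ∧ ∀ p ∈ K ⊔ M, φ p.1 = p.2 := by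
  obtain ⟨v, s⟩ := exists_St h
  obtain ⟨φ, a, e⟩ := h.kz.exists_hom' s.am (ls := Al) (ls0 := Kl) (by decide) s.ga exA.2.1.symm
    (fun i hi => ⟨by revert i; decide, s.k (Mb.of (by revert i; decide))⟩) cK.1.le esQ.zz gz v4.bz
  refine ⟨φ, a, fun p hp => e p (sup_le le_sup_left (h.le (a := v 15) (b := v 20) ?_
    ⟨s.n (Mb.of (by decide)), ?_⟩ ⟨s.n (Mb.of (by decide)), ?_⟩ le_sup_left) hp)⟩
  · rw [s.am.fst 15 (by norm_num), s.am.fst 20 (by norm_num)]; exact v4
  exacts [mem_sup_right (Mb.of (by decide)), mem_sup_right (Mb.of (by decide))]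

end Cfsg.Agent.SZ
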