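import Cfsg.Agent.SZ.M1
import Cfsg.Agent.SZ.D3

/-! # Involutions of `Suz` -/

set_option autoImplicit false
set_option maxRecDepth 100000

namespace Cfsg.Agent.SZ

open Cfsg Cfsg.Spor Cfsg.Agent.GT Cfsg.Agent.TT Cfsg.Agent.TC Cfsg.Agent.XL Cfsg.Agent.M24 Subgroup MulAction

/-- a Sylow 2-subgroup -/
def Tl : List ℕ := [0, 1, 2, 3, 4, 5, 6, 7, 8, 9, 10, 11, 15]

/-- the second involution -/
noncomputable def tt : Suz := evl m [2, 6, 10]

theorem eT : enumChk f 24 1782 bs Tl tT (fun w b => bor (bor (!eq (w ++ w) []) (eq w []))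
    (bor (eq (0 :: dw b) (dw b ++ w)) (band (lsub (dw b) Kl) (eq (2 :: 6 :: 10 :: dw b) (dw b ++ w))))) = true := by
  decide +kernel

theorem sylT : IsPiHallOf {2} (Mb m Tl) ⊤ := syl_card (a := 13) (b := 54729675) Nat.prime_two le_top
  (md.card num eT (by decide +kernel)) exA.2.2 (by norm_num)

theorem clT : ∀ x ∈ Mb m Tl, x * x = 1 → x ≠ 1 →
    (∃ g, x = g * m 0 * g⁻¹) ∨ ∃ k ∈ C1[m 0], x = k * tt * k⁻¹ := fun x hx h2 h1 => by
  obtain ⟨w, b, a, rfl, p⟩ := md.enum num eT x hx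
  simp only [bor_eq, band_eq, Bool.or_eq_true, Bool.and_eq_true, Bool.not_eq_true', ← Bool.not_eq_true,
    md.eq_iff num, evl_append, evl] at p
  rcases p with (p | p) | p | p
  · exact absurd ⟨⟨List.forall_mem_append.2 ⟨a, a⟩, by simp⟩, h2⟩ p
  · exact absurd p.2 h1
  · exact Or.inl ⟨_, eq_mul_inv_of_mul_eq p.2.symm⟩
  · exact Or.inr ⟨_, cK.1 ▸ Mb.ev' p.1, eq_mul_inv_of_mul_eq (p.2.2.symm.trans (by simp [tt, evl, mul_assoc]))⟩

end Cfsg.Agent.SZ
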