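import Cfsg.Agent.SZ.M2
import Cfsg.Agent.SZ.M3
import Cfsg.Agent.SZ.D4
import Cfsg.Agent.XL.Fac2

/-! # The second class of involutions; identification of `Suz` -/

set_option autoImplicit false
set_option maxRecDepth 100000

namespace Cfsg.Agent.SZ

open Cfsg Cfsg.Spor Cfsg.Agent.GT Cfsg.Agent.TT Cfsg.Agent.TC Cfsg.Agent.XL Cfsg.Agent.M24 Subgroup MulAction

/-- second tables -/
noncomputable def fC (i q : ℕ) : ℕ := apw (nat_lit 11) (nat_lit 2047) (cC i) q

theorem exists_mC : ∃ u : ℕ → Suz, Ma idx u fC 20 1782 ∧ u 0 = m 0 ∧ u 1 = tt :=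
  ⟨_, ma.ext (wd := lget wC 0) (by decide +kernel), ev1 0 ▸ md.eq (by decide +kernel), md.eq (by decide +kernel)⟩

/-- second letters -/
noncomputable def mC : ℕ → Suz := exists_mC.choose
theorem mac : Ma idx mC fC 20 1782 := exists_mC.choose_spec.1
theorem mC0 : mC 0 = m 0 := exists_mC.choose_spec.2.1
theorem mC1 : mC 1 = tt := exists_mC.choose_spec.2.2
theorem mdc : Md idx mC fC 20 bs := md.of_ma mac

/-- equality of words -/
noncomputable abbrev eqc : List ℕ → List ℕ → Bool := eqw fC 20 bs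
/-- commuting words -/
noncomputable abbrev cbc : List ℕ → List ℕ → Bool := cmb fC 20 bs
/-- all letters -/
def Xl : List ℕ := [0, 1, 2, 3, 4, 5, 6, 7, 8, 9, 10, 11, 12, 13, 14, 15, 16, 17, 18, 19]
/-- the component -/
def El : List ℕ := [0, 5, 6, 7, 8, 10, 11]
/-- the centralizer -/
def Cl : List ℕ := [0, 1, 2, 5, 6, 7, 8, 9, 10, 11]
/-- its Sylow 2-subgroup -/
def Ul : List ℕ := [0, 1, 2, 5, 6, 7, 8, 9]
/-- normalizer of a Sylow 7-subgroup -/
def N7 : List ℕ := [1, 2, 3, 4, 14, 15, 16, 17, 18]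
/-- the elements of order seven -/
def wb : List (List ℕ) := [[14], [14, 14], [14, 14, 14], [15], [15, 15], [15, 15, 15]]

theorem evc (i : ℕ) : evl mC [i] = mC i := one_mul _

theorem cenc {ls : List ℕ} {j : ℕ} (h : lall ls (fun i => cbc [i] [j]) = true) : Mb mC ls ≤ C1[mC j] :=
  evc j ▸ mdc.cent h

theorem cbc_of {w : List ℕ} {j : ℕ} (hw : ∀ i ∈ w, i < 20) (hj : j < 20) (h : evl mC w ∈ C1[mC j]) :
    cbc w [j] = true := (mdc.cm_iff num).2 ⟨⟨hw, by simpa using hj⟩, evc j ▸ mem_cent1.1 h⟩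

theorem cprc {j : ℕ} (hj : j < 20) : ∀ g ∈ C1[mC j], ∀ x, cpr fC [[j]] (idx x) (idx (g • x)) = true :=
  fun _ hg => mac.cpr (by simpa [llt_iff] using hj) (by simpa [evc, Commute, SemiconjBy] using mem_cent1.1 hg)

theorem cardc {ls : List ℕ} (t : T) {N : ℕ} (h : band (enumChk fC 20 1782 bs ls t fun _ _ => true)
    (band (t.srt 0 (1782 ^ bs.length)) (Nat.beq t.size N)) = true) : Nat.card (Mb mC ls) = N := by
  rw [band_eq, Bool.and_eq_true] at h
  exact mdc.card num h.1 h.2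

theorem cT : C1[mC 1] = Mb mC Cl ∧ Nat.card (Mb mC Cl) = 161280 := by
  have := mac.sift (Ss := sT) (ls := Cl) (N := 161280) (mac.exact (ls := Xl) (Ls := xT) le_top
      (cardc (ls := [1, 2, 3, 4]) tA4 (N := 12) (by decide +kernel)) exA.2.2.le (by decide +kernel)).1
    (le_inf (cenc (by decide +kernel)) le_top) (cprc (j := 1) (by norm_num))
    (mdc.inf_le num (t := tA4) (c := fun w => cbc w [1]) (by decide +kernel) fun _ a => cbc_of a (by norm_num))
    (Mb.mono (by decide)) (cardc (ls := [1, 2]) tV (N := 4) (by decide +kernel)) (by decide +kernel)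
  rwa [inf_top_eq] at this

theorem cU : C1[mC 0] ⊓ C1[mC 1] = Mb mC Ul ∧ Nat.card (Mb mC Ul) = 512 :=
  cT.1 ▸ mac.sift (Ss := sU) (mac.exact (Ls := xU) le_rfl card_nil cT.2.le (by decide +kernel)).1
    (le_inf (cenc (by decide +kernel)) (Mb.mono (by decide))) (cprc (by norm_num)) inf_le_right le_rfl card_nil
    (by decide +kernel)

theorem lb : Lists mC 20 (Mb mC [14, 15]) ([] :: wb) := mdc.lists num (t := tb) (by decide +kernel)

theorem cN : N[Mb mC [14, 15]] = Mb mC N7 ∧ Nat.card (Mb mC N7) = 504 := by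
  have := mac.sift (Ss := s7) (ls := N7) (N := 504) (mac.exact (ls := Xl) (Ls := x7) le_top
      (cardc (ls := [14, 15, 16, 17, 19]) tL (N := 168) (by decide +kernel)) exA.2.2.le (by decide +kernel)).1
    (le_inf (mdc.norms (ws := wb) (by decide +kernel)) le_top)
    (fun _ => mac.npr lb (mdc.ne_all num (by decide +kernel)))
    (mdc.inf_le num (t := tL) (by decide +kernel) fun _ =>
      mdc.nrm_any num lb (i := 14) (by norm_num) (Mb.of (by decide)))
    (Mb.mono (by decide)) (cardc (ls := [14, 15, 16, 17]) t21 (N := 21) (by decide +kernel)) (by decide +kernel)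
  rwa [inf_top_eq] at this

theorem o7 : orderOf (mC 14) = 7 := evc 14 ▸ mdc.ord num (by norm_num) (by decide +kernel)

theorem zp7 : Mb mC [14, 15] = zpowers (mC 14) := by
  have : mC 15 = (mC 14)⁻¹ := eq_inv_of_mul_eq_one_left (by
    simpa [evl] using mdc.eq (w := [14, 15]) (w' := []) (by decide +kernel))
  exact le_antisymm (Mb.le (by simp [this])) (zpowers_le.2 (Mb.of (by decide)))

theorem syl7 : IsPiHallOf {7} (zpowers (mC 14)) ⊤ := syl_card (a := 1) (b := 64049356800) (by norm_num) le_top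
  (by rw [Nat.card_zpowers, o7]; rfl) exA.2.2 (by norm_num)

theorem no35 (a b : Suz) (ha : orderOf a = 5) (hb : orderOf b = 7) : ¬ Commute a b := fun hc => by
  obtain ⟨g, -, e⟩ := syl_elt (a := 1) (by norm_num) syl7 (mem_top b) (by rw [pow_one, ← hb, pow_orderOf_eq_one])
  have c := comm_zp ((commute_conj_iff g).2 hc) (mem_zp_of_prime (by rw [o7]; norm_num) e
    fun o => by rw [conj_eq_one_iff.1 o] at hb; simp at hb)
  have := orderOf_dvd_natCard _ (cent_le_norm (zpowers (mC 14)) fun x hx => (comm_zp c hx).symm)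
  rw [orderOf_conj, ha, ← zp7, cN.1, cN.2] at this
  omega

theorem eU : enumChk fC 20 1782 bs Ul tU (fun w b => band (bor (eqc (pww w 4) []) (eqc (pww w 4) [0]))
    (bor (bor (bor (!eqc (w ++ w) []) (eqc w [])) (!cbc w [3]))
      (band (lsub (dw b) El) (eqc (0 :: dw b) (dw b ++ w))))) = true := by decide +kernel

theorem ct : CT (mC 0) (mC 1) (Mb mC El) 5 7 := by
  have n : Mb mC Cl ≤ N[Mb mC El] := mdc.norms (ws := nE) (by decide +kernel)
  refine CT.of (mC0 ▸ esQ.zz) (by simpa [evl] using mdc.eq (w := [1, 1]) (w' := []) (by decide +kernel))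
    (mC0 ▸ esQ.ne) (by simpa [evl] using mdc.ne' num (w := [1]) (w' := []) (by decide +kernel)) sylT
    (mC0 ▸ cK.1 ▸ Mb.mono (by decide)) (mC0 ▸ mC1 ▸ clT)
    (syl_card (a := 9) (b := 315) Nat.prime_two inf_le_right (cU.1 ▸ cU.2) (cT.1 ▸ cT.2) (by norm_num))
    ?_ (cT.1 ▸ n) (mdc.perf (a := lget pfa 0) (b := lget pfb 0) (by decide +kernel)) ?_ (Mb.of (by decide))
    (fun x hx h2 h1 e => ?_) (by norm_num) ?_ (by rw [cT.1, cT.2]; norm_num) no35
  · rw [cU.1, cT.1]
    refine le_antisymm (Mb.le fun i hi => ?_) (sup_le (Mb.mono (by decide)) (Mb.mono (by decide)))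
    exact (show i ∈ El ∨ i ∈ Ul by revert i; decide).elim (fun o => mem_sup_left (Mb.of o))
      fun o => mem_sup_right (Mb.of o)
  · have a := mdc.comm_le (ls := Cl) (ls0 := El ++ [1]) (ws := cD) (mdc.norms (ws := nD) (by decide +kernel))
      (by decide +kernel)
    rw [cT.1]
    exact (commutator_mono a a).trans (mdc.comm_le (ws := cE) ((Mb.mono (by decide)).trans n) (by decide +kernel))
  · obtain ⟨w, b, a, rfl, p⟩ := mdc.enum num eU x (cU.1 ▸ hx)
    have c := cbc_of a (by norm_num) (cenc (ls := El) (j := 3) (by decide +kernel) e)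
    simp only [bor_eq, band_eq, Bool.or_eq_true, Bool.and_eq_true, Bool.not_eq_true', ← Bool.not_eq_true,
      mdc.eq_iff num, evl_append, evl, c] at p
    rcases p.2 with ((p | p) | p) | p
    · exact absurd ⟨⟨List.forall_mem_append.2 ⟨a, a⟩, by simp⟩, h2⟩ p
    · exact absurd p.2 h1
    · exact absurd trivial p
    · exact ⟨_, Mb.ev' p.1, eq_mul_inv_of_mul_eq p.2.2.symm⟩
  · refine Nat.Coprime.mul_dvd_of_dvd_of_dvd (by norm_num) ?_ ?_
    · exact mdc.ord num (w := w5) (p := 5) (by norm_num) (by decide +kernel) ▸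
        orderOf_dvd_natCard _ (Mb.ev (by decide))
    · exact mdc.ord num (w := w7) (p := 7) (by norm_num) (by decide +kernel) ▸
        orderOf_dvd_natCard _ (Mb.ev (by decide))

variable {G : Type*} [Group G] [Finite G] {K M : Subgroup (Suz × G)} {z : G}

theorem nconj {φ : Suz →* G} (hi : Function.Injective φ) (h : C1[φ (mC 0)] ≤ φ.range) :
    ¬ IsConj (φ (mC 0)) (φ (mC 1)) := by
  refine not_conj_of_char hi h (syl_isPGroup Nat.prime_two ct.syl) (fun g _ => char_of_pow (n := 4)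
    (fun e => ct.z1 (hi (e.trans (map_one φ).symm))) (fun x hx => ?_) ⟨evl mC w8, cU.1 ▸ Mb.ev (by decide), ?_⟩)
    (by rw [cU.1, cU.2, mC0, cK.1, cK.2]; norm_num)
  · obtain ⟨w, b, a, rfl, p⟩ := mdc.enum num eU x (cU.1 ▸ hx)
    simp only [bor_eq, band_eq, Bool.or_eq_true, Bool.and_eq_true, mdc.eq_iff num, evl_pww, evc] at p
    exact p.1.imp And.right And.right
  · rw [← evl_pww, ← evc]; exact mdc.eq (by decide +kernel)

theorem rel0 (h : RH (m 0) (m 1) z K M) : ∃ φ : Suz ≃* G, ∀ p ∈ K ⊔ M, φ p.1 = p.2 := by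
  obtain ⟨φ, a, e⟩ := emb h
  have b := (h.kz.range e).2
  rw [← mC0] at b
  exact ⟨MulEquiv.ofBijective φ ⟨a, ct.surj a b (nconj a b)⟩, e⟩

theorem iso' {Q : Subgroup G} {g : G} (h : LT Q z g 3 25920) :
    ∃ φ : Suz ≃* G, φ (m 0) = z ∧ φ (m 1) = g * z * g⁻¹ ∧ (Mb m Ql).map φ.toMonoidHom = Q := by
  obtain ⟨π, hB⟩ := h.xp6
  obtain ⟨π0, hA⟩ := lt0.xp6
  obtain ⟨Δ, K, hK⟩ := exists_KH6 hA hB
  obtain ⟨M, r⟩ := hK.rh (by simpa only [gz] using hs)
  simp only [gz] at r
  obtain ⟨φ, e⟩ := rel0 r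
  refine ⟨φ, e _ (mem_sup_left r.kz.mem), gz ▸ e _ (mem_sup_left (hK.kg.dg hK.dg.ss)), eq_of_le_of_card_ge ?_ ?_⟩
  · rintro _ ⟨x, hx, rfl⟩
    obtain ⟨d, hd⟩ := r.kz.fst x (esQ.le_cent1 hx)
    exact (show φ x = d from e _ (mem_sup_left hd)) ▸ (hK.dg.mem _ (hK.mem_Δ hd hx)).2.1
  · rw [card_map_of_injective φ.injective, h.cQ', lt0.cQ']

theorem rel {X : Type*} [Group X] [Finite X] {Q : Subgroup X} {z0 g : X} (h : LT Q z0 g 3 25920)
    {K M : Subgroup (X × G)} (r : RH z0 (g * z0 * g⁻¹) z K M) : ∃ φ : X ≃* G, ∀ p ∈ K ⊔ M, φ p.1 = p.2 := by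
  obtain ⟨e, a, b, -⟩ := iso' h
  rw [← b, ← a] at r
  exact r.transport e fun _ _ => rel0

end Cfsg.Agent.SZ
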